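import Cfsg.Agent.Lib.Helper28.J1p266Data

set_option autoImplicit false
set_option maxRecDepth 100000

namespace Cfsg.Agent.Lib.Helper28.J1p266

open Cfsg.Agent.Lib.Helper28
theorem lrel_0 : allRange (fun c => allList (fun w => L.checkRel w c) Cfsg.Agent.Lib.Helper28.J1pPD.pd.words) 0 266 = true := by decide +kernel
theorem lrel_all : ∀ w ∈ Cfsg.Agent.Lib.Helper28.J1pPD.pd.words, ∀ c < L.n, L.checkRel w c = true := by
  intro w hw c hc
  have hc' : c < 266 := hc
  by_cases h0 : c < 266
  · exact allList_iff.mp (allRange_iff.mp lrel_0 c (by omega) (by omega)) w hw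
  omega

end Cfsg.Agent.Lib.Helper28.J1p266
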