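import Cfsg.Agent.Lib.Helper28.J1p266ChkU
import Cfsg.Agent.Lib.Helper28.J1p266ChkL

set_option autoImplicit false

namespace Cfsg.Agent.Lib.Helper28.J1p266

open Cfsg.Agent.Lib.Helper28
abbrev S : Set (FreeGroup Cfsg.Agent.Lib.Helper28.J1pDef.Gen) := ({Cfsg.Agent.Lib.Helper28.J1pDef.a, (Cfsg.Agent.Lib.Helper28.J1pDef.a)⁻¹ * Cfsg.Agent.Lib.Helper28.J1pDef.b * (Cfsg.Agent.Lib.Helper28.J1pDef.a)⁻¹ * Cfsg.Agent.Lib.Helper28.J1pDef.b * (Cfsg.Agent.Lib.Helper28.J1pDef.a)⁻¹ * (Cfsg.Agent.Lib.Helper28.J1pDef.b)⁻¹ * (Cfsg.Agent.Lib.Helper28.J1pDef.a)⁻¹ * (Cfsg.Agent.Lib.Helper28.J1pDef.b)⁻¹ * (Cfsg.Agent.Lib.Helper28.J1pDef.a)⁻¹ * Cfsg.Agent.Lib.Helper28.J1pDef.b * (Cfsg.Agent.Lib.Helper28.J1pDef.a)⁻¹ * (Cfsg.Agent.Lib.Helper28.J1pDef.b)⁻¹ * (Cfsg.Agent.Lib.Helper28.J1pDef.a)⁻¹ * Cfsg.Agent.Lib.Helper28.J1pDef.b * (Cfsg.Agent.Lib.Helper28.J1pDef.a)⁻¹ * Cfsg.Agent.Lib.Helper28.J1pDef.b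 * Cfsg.Agent.Lib.Helper28.J1pDef.a * (Cfsg.Agent.Lib.Helper28.J1pDef.b)⁻¹ * Cfsg.Agent.Lib.Helper28.J1pDef.a * Cfsg.Agent.Lib.Helper28.J1pDef.b * Cfsg.Agent.Lib.Helper28.J1pDef.a * (Cfsg.Agent.Lib.Helper28.J1pDef.b)⁻¹ * Cfsg.Agent.Lib.Helper28.J1pDef.a * Cfsg.Agent.Lib.Helper28.J1pDef.b * Cfsg.Agent.Lib.Helper28.J1pDef.a * Cfsg.Agent.Lib.Helper28.J1pDef.b * Cfsg.Agent.Lib.Helper28.J1pDef.a * (Cfsg.Agent.Lib.Helper28.J1pDef.b)⁻¹ * Cfsg.Agent.Lib.Helper28.J1pDef.a * (Cfsg.Agent.Lib.Helper28.J1pDef.b)⁻¹ * Cfsg.Agent.Lib.Helper28.J1pDef.a} : Set (FreeGroup Cfsg.Agent.Lib.Helper28.J1pDef.Gen))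
theorem ok : Q.OK S where
  pd := Cfsg.Agent.Lib.Helper28.J1pPD.pd_ok
  letters := Cfsg.Agent.Lib.Helper28.J1pPD.pd_letters
  DK := rfl
  DKall := rfl
  LK := rfl
  Linv := rfl
  Ln := rfl
  sigK := by decide
  subK := by decide
  Dpairs := rfl
  pairs := pairs_ok
  relsK := relsK_ok
  wordsK := Cfsg.Agent.Lib.Helper28.J1pPD.pd_wordsK
  sub := by
    intro x hx
    have hx' : x ∈ subL := by simpa [Q, D] using hx
    simp only [subL, List.mem_cons, List.mem_nil_iff, or_false] at hx'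
    rcases hx' with rfl | rfl | rfl | rfl
    · rw [Prob.val_lt (Q := Q) (show 0 < 4 by decide)]
      exact Subgroup.mem_map_of_mem _ (Subgroup.subset_closure (Set.mem_insert _ _))
    · rw [Prob.val_lt (Q := Q) (show 1 < 4 by decide)]
      exact Subgroup.mem_map_of_mem _ (Subgroup.inv_mem _ (Subgroup.subset_closure (Set.mem_insert _ _)))
    · rw [show (5 : ℕ) = Q.P.K + 1 + 2 * 0 from rfl, Prob.val_sig1 (Q := Q) 0 (by decide)]
      exact Subgroup.mem_map_of_mem _ (Subgroup.subset_closure (Set.mem_insert_of_mem _ (Set.mem_singleton _)))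
    · rw [show (6 : ℕ) = Q.P.K + 2 + 2 * 0 from rfl, Prob.val_sig2 (Q := Q) 0 (by decide)]
      exact Subgroup.inv_mem _ (Subgroup.mem_map_of_mem _ (Subgroup.subset_closure (Set.mem_insert_of_mem _ (Set.mem_singleton _))))
  check := check_all
  hm := by decide
  h0 := h0_ok
  fin := allBelow_iff.mp fin_all
  count := live_count
  valid :=
    { invK := by
        intro x hx
        have hx' : x < 4 := hx
        interval_cases x <;> exact ⟨by decide, rfl⟩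
      point := allBelow_iff.mp point_ok
      tree := allBelow_iff.mp tree_ok }
  lrel := lrel_all
  S2 := by
    intro s hs
    simp only [S, Set.mem_insert_iff, Set.mem_singleton_iff] at hs
    rcases hs with rfl | rfl
    · exact ⟨(.g 0), by simp [Q, subE], rfl⟩
    · exact ⟨(.mul (.mul (.mul (.mul (.mul (.mul (.mul (.mul (.mul (.mul (.mul (.mul (.mul (.mul (.mul (.mul (.mul (.mul (.mul (.mul (.mul (.mul (.mul (.mul (.mul (.mul (.mul (.mul (.mul (.mul (.inv (.g 0)) (.g 2)) (.inv (.g 0))) (.g 2)) (.inv (.g 0))) (.inv (.g 2))) (.inv (.g 0))) (.inv (.g 2))) (.inv (.g 0))) (.g 2)) (.inv (.g 0))) (.inv (.g 2))) (.inv (.g 0))) (.g 2)) (.inv (.g 0))) (.g 2)) (.g 0)) (.inv (.g 2))) (.g 0)) (.g 2)) (.g 0)) (.inv (.g 2))) (.g 0)) (.g 2)) (.g 0)) (.g 2)) (.g 0)) (.inv (.g 2))) (.g 0)) (.inv (.g 2))) (.g 0)), by simp [Q, subE], rfl⟩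
  lsub := lsub_ok

theorem index_eq : ((Subgroup.closure S).map (PresentedGroup.mk (Cfsg.Spor.coxRelators Cfsg.Agent.Lib.Helper28.J1pDef.edges ∪ {r | r ∈ Cfsg.Agent.Lib.Helper28.J1pDef.extra}))).index = 266 :=
  ok.index.1

end Cfsg.Agent.Lib.Helper28.J1p266
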