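import Cfsg.Agent.Lib.Helper28.J1p266Data

set_option autoImplicit false
set_option maxRecDepth 100000

namespace Cfsg.Agent.Lib.Helper28.J1p266

open Cfsg.Agent.Lib.Helper28
theorem chk_0 : allRange D.checkLabel 0 1500 = true := by decide +kernel
theorem chk_1 : allRange D.checkLabel 1500 271 = true := by decide +kernel
theorem fin_all : allBelow D.finalLabel 1771 = true := by decide +kernel
theorem live_count : D.liveCount = 266 := by decide +kernel
theorem pairs_ok : Q.pairsC.all (pairOK (relsAll Q.relW Q.invA Q.Kall) Q.invA Q.P.K Q.Kall) = true := by decide +kernel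
theorem relsK_ok : ∀ r ∈ relsAll Q.relW Q.invA Q.Kall, ∀ y ∈ r, y < Q.Kall := by decide +kernel
theorem h0_ok : D.tg D.K 0 = 0 := by decide +kernel
theorem point_ok : allBelow L.checkPoint 266 = true := by decide +kernel
theorem tree_ok : allBelow L.checkTree 266 = true := by decide +kernel
theorem lsub_ok : ∀ E ∈ Q.subE, ptrace Q.L.pt (E.word Q.P.inv) 0 = 1 := by decide +kernel
theorem check_all : ∀ c < D.m, D.checkLabel c = true := by
  intro c hc
  have hc' : c < 1771 := hc
  by_cases h0 : c < 1500
  · exact allRange_iff.mp chk_0 c (by omega) (by omega)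
  by_cases h1 : c < 1771
  · exact allRange_iff.mp chk_1 c (by omega) (by omega)
  omega

end Cfsg.Agent.Lib.Helper28.J1p266
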