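import Cfsg.Agent.Lib.Helper28.TCSimple

/-!
# Order and simplicity, with a weaker arithmetical condition on the suborbit lengths (helper28)
-/

set_option autoImplicit false

namespace Cfsg.Agent.Lib.Helper28

/-- a simplicity criterion -/
theorem simple_of_normal_dichotomy' {G : Type*} [Group G] (H : Subgroup G) (p k j : ℕ)
    (hp : p.Prime)
    (hcore : ∀ M : Subgroup G, M.Normal → M ≤ H → M = ⊥)
    (hprim : ∀ M : Subgroup G, M.Normal → M ≤ H ∨ p ^ k ∣ Nat.card M)
    (hN : ¬ p ^ (k + 1) ∣ Nat.card G)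
    (x : G) (hx : x ^ (p ^ j) = 1) (hnc : Subgroup.normalClosure {x} = ⊤) (hnt : Nontrivial G) :
    IsSimpleGroup G := by
  refine { exists_pair_ne := hnt.exists_pair_ne, eq_bot_or_eq_top_of_normal := ?_ }
  intro M hM
  by_cases hMH : M ≤ H
  · left; exact hcore M hM hMH
  · right
    have h1 : p ^ k ∣ Nat.card M := (hprim M hM).resolve_left hMH
    have h2 : Nat.card M * M.index = Nat.card G := M.card_mul_index
    have h3 : ¬ p ∣ M.index := by
      intro h
      apply hN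
      rw [← h2, pow_succ]
      exact Nat.mul_dvd_mul h1 h
    have hxM : x ∈ M := by
      have h4 : ((x : G) : G ⧸ M) = 1 := by
        have o1 : orderOf ((x : G) : G ⧸ M) ∣ p ^ j :=
          orderOf_dvd_of_pow_eq_one (by rw [← QuotientGroup.mk_pow, hx]; rfl)
        have o2 : orderOf ((x : G) : G ⧸ M) ∣ M.index := orderOf_dvd_natCard _
        have o3 : Nat.Coprime (p ^ j) M.index :=
          Nat.Coprime.pow_left _ ((Nat.Prime.coprime_iff_not_dvd hp).mpr h3)
        have o4 : orderOf ((x : G) : G ⧸ M) = 1 := Nat.eq_one_of_dvd_coprimes o3 o1 o2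
        exact orderOf_eq_one_iff.mp o4
      exact (QuotientGroup.eq_one_iff x).mp h4
    have h5 : Subgroup.normalClosure {x} ≤ M := Subgroup.normalClosure_le_normal (by simpa using hxM)
    rw [hnc] at h5
    exact top_le_iff.mp h5

namespace Prob

variable {α : Type} [DecidableEq α] {Q : Prob α} {S : Set (FreeGroup α)}

variable (O : Orb)

/-- a normal subgroup fixes the base point or is transitive, by arithmetic of the suborbit lengths -/
theorem OK.normal_dichotomy' (d : ℕ) (h : Q.OK S) (hO : O.OK Q) (hS1 : ∀ E ∈ Q.subE, E.value Q.P.lfree ∈ S)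
    (r : ℕ) (hoid : ∀ c < Q.n, O.oid c < r)
    (hc0 : O.count Q 0 = 1) (h00 : O.oid 0 = 0)
    (harith : ∀ I ∈ (Finset.range r).powerset, 0 ∈ I → (∑ k ∈ I, O.count Q k) ∣ Q.n →
      I = {0} ∨ d ∣ ∑ k ∈ I, O.count Q k)
    (M : Subgroup Q.Grp) (hM : M.Normal) : M ≤ HS Q S ∨ d ∣ Nat.card M := by
  classical
  have hn : 0 < Q.n := lt_of_le_of_lt (Nat.zero_le _) (h.index.2.2.1 1)
  let q0 : Q.Grp ⧸ HS Q S := ((1 : Q.Grp) : Q.Grp ⧸ HS Q S)
  let B : Set (Q.Grp ⧸ HS Q S) := MulAction.orbit M q0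
  have hblock : MulAction.IsBlock Q.Grp B := MulAction.IsBlock.orbit_of_normal q0
  have hq0 : q0 ∈ B := MulAction.mem_orbit_self q0
  have hdvd1 : B.ncard ∣ Q.n := by
    have := hblock.ncard_dvd_card ⟨q0, hq0⟩
    rwa [show Nat.card (Q.Grp ⧸ HS Q S) = (HS Q S).index from rfl, h.index.1] at this
  have hdvd2 : B.ncard ∣ Nat.card M := by
    rw [← MulAction.index_stabilizer M q0]
    exact Subgroup.index_dvd_card _
  let P : Set ℕ := toPt h '' B
  have hP : ∀ c, c ∈ P ↔ ∃ m ∈ M, phi h m 0 = c := by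
    intro c
    constructor
    · rintro ⟨_, ⟨m, rfl⟩, rfl⟩
      refine ⟨m.1, m.2, ?_⟩
      show phi h m.1 0 = toPt h ((m.1 * 1 : Q.Grp) : Q.Grp ⧸ HS Q S)
      rw [toPt_mk, mul_one]
    · rintro ⟨m, hm, rfl⟩
      refine ⟨(⟨m, hm⟩ : M) • q0, ⟨⟨m, hm⟩, rfl⟩, ?_⟩
      have e : (⟨m, hm⟩ : M) • q0 = ((m * 1 : Q.Grp) : Q.Grp ⧸ HS Q S) := rfl
      rw [e, toPt_mk, mul_one]
  have hinvP : ∀ k ∈ HS Q S, ∀ c ∈ P, phi h k c ∈ P := by
    intro k hk c hc
    obtain ⟨m, hm, rfl⟩ := (hP c).mp hc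
    refine (hP _).mpr ⟨k * m * k⁻¹, hM.conj_mem m hm k, ?_⟩
    have e2 : phi h k (phi h m 0) = phi h (k * m * k⁻¹) (phi h k 0) := by
      rw [← Equiv.Perm.mul_apply, ← Equiv.Perm.mul_apply, ← map_mul, ← map_mul]
      congr 2
      group
    rw [e2, h.index.2.2.2.1 k hk]
  have hroot : ∀ c < Q.n, (c ∈ P ↔ nth O.roots Q.n (O.oid c) ∈ P) := by
    intro c hc
    obtain ⟨k, hk, e⟩ := h.reach O hO hS1 _ c rfl hc
    constructor
    · intro hcP
      have := hinvP k⁻¹ (Subgroup.inv_mem _ hk) c hcP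
      rwa [← e, ← Equiv.Perm.mul_apply, ← map_mul, inv_mul_cancel, map_one, Equiv.Perm.one_apply] at this
    · intro hr
      rw [← e]
      exact hinvP k hk _ hr
  let I : Finset ℕ := (Finset.range r).filter (fun k => nth O.roots Q.n k ∈ P)
  have hPeq : P = ↑((Finset.range Q.n).filter (fun c => O.oid c ∈ I)) := by
    ext c
    simp only [Finset.coe_filter, Finset.mem_range, Set.mem_ofPred_eq]
    constructor
    · intro hc
      obtain ⟨m, _, e⟩ := (hP c).mp hc
      have hcn : c < Q.n := by rw [← e]; exact h.index.2.2.1 m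
      exact ⟨hcn, Finset.mem_filter.mpr ⟨Finset.mem_range.mpr (hoid c hcn), (hroot c hcn).mp hc⟩⟩
    · rintro ⟨hcn, hcI⟩
      exact (hroot c hcn).mpr (Finset.mem_filter.mp hcI).2
  have hcard : B.ncard = ∑ k ∈ I, O.count Q k := by
    rw [← Set.ncard_image_of_injective B (toPt_injective h)]
    show P.ncard = _
    rw [hPeq, Set.ncard_coe_finset,
      Finset.card_eq_sum_card_fiberwise (f := O.oid) (t := I)
        (s := (Finset.range Q.n).filter (fun c => O.oid c ∈ I))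
        (fun c hc => (Finset.mem_filter.mp (Finset.mem_coe.mp hc)).2)]
    apply Finset.sum_congr rfl
    intro k hk
    rw [Orb.count_eq]
    congr 1
    ext c
    simp only [Finset.mem_filter, Finset.mem_range]
    constructor
    · rintro ⟨⟨a, _⟩, b⟩; exact ⟨a, b⟩
    · rintro ⟨a, b⟩; exact ⟨⟨a, by rw [b]; exact hk⟩, b⟩
  have h0P : (0 : ℕ) ∈ P := (hP 0).mpr ⟨1, M.one_mem, by simp⟩
  have h0I : 0 ∈ I := by
    have := (hroot 0 hn).mp h0P
    rw [h00] at this
    refine Finset.mem_filter.mpr ⟨Finset.mem_range.mpr ?_, this⟩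
    have := hoid 0 hn
    rwa [h00] at this
  rcases harith I (Finset.mem_powerset.mpr (Finset.filter_subset _ _)) h0I (by rw [← hcard]; exact hdvd1)
    with hI | hI
  · left
    rw [hI, Finset.sum_singleton, hc0] at hcard
    obtain ⟨a, ha⟩ := Set.ncard_eq_one.mp hcard
    intro m hm
    have h1 : (⟨m, hm⟩ : M) • q0 ∈ B := ⟨⟨m, hm⟩, rfl⟩
    rw [ha] at h1 hq0
    have h2 : (⟨m, hm⟩ : M) • q0 = q0 := by
      rw [Set.mem_singleton_iff.mp h1, Set.mem_singleton_iff.mp hq0]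
    have e : (⟨m, hm⟩ : M) • q0 = ((m * 1 : Q.Grp) : Q.Grp ⧸ HS Q S) := rfl
    rw [e, mul_one] at h2
    have h3 := QuotientGroup.eq.mp h2
    rw [mul_one] at h3
    simpa using Subgroup.inv_mem _ h3
  · right
    rw [← hcard] at hI
    exact dvd_trans hI hdvd2

/-- order and simplicity -/
theorem OK.simple4 (h : Q.OK S) (hO : O.OK Q) (hS1 : ∀ E ∈ Q.subE, E.value Q.P.lfree ∈ S)
    (r : ℕ) (hoid : ∀ c < Q.n, O.oid c < r)
    (hc0 : O.count Q 0 = 1) (h00 : O.oid 0 = 0)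
    (N : ℕ) (hub : Finite (Sg Q.val (List.range Q.P.K)) ∧ Nat.card (Sg Q.val (List.range Q.P.K)) ≤ N)
    (levels : List Lev) (hchain : chainOK Q.L [] levels) (hprod : (levels.map Lev.cnt).prod = N)
    (p k j : ℕ) (hp : p.Prime)
    (harith : ∀ I ∈ (Finset.range r).powerset, 0 ∈ I → (∑ k ∈ I, O.count Q k) ∣ Q.n →
      I = {0} ∨ p ^ k ∣ ∑ k ∈ I, O.count Q k)
    (hN : ¬ p ^ (k + 1) ∣ N) (hN1 : 1 < N)
    (xw : List ℕ) (hxw : ∀ y ∈ xw, y < Q.P.K)
    (hxchk : ∀ c < Q.L.n, Q.L.checkRel (List.replicate (p ^ j) xw).flatten c = true)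
    (Lk : Link) (hLk : Lk.OK (Q.P.words ++ [xw]) Q.P.inv Q.P.K (List.range Q.P.K) []) (hn : Lk.n = 1) :
    IsSimpleGroup Q.Grp ∧ Nat.card Q.Grp = N ∧ Function.Injective (phi h) := by
  rw [h.Sg_top] at hub
  have hfin : Finite Q.Grp := by
    have := hub.1
    exact Finite.of_injective (fun g => (⟨g, Subgroup.mem_top g⟩ : (⊤ : Subgroup Q.Grp)))
      (fun a b hab => congrArg Subtype.val hab)
  have hub2 : Nat.card Q.Grp ≤ N := by
    have := hub.2
    rwa [Subgroup.card_top] at this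
  have hlb := h.card_range_ge hfin levels hchain
  rw [hprod] at hlb
  obtain ⟨hcard, hinj⟩ := order_of_bounds (phi h) N hfin hub2 hlb
  refine ⟨?_, hcard, hinj⟩
  refine simple_of_normal_dichotomy' (HS Q S) p k j hp ?_
    (h.normal_dichotomy' O (p ^ k) hO hS1 r hoid hc0 h00 harith)
    (by rw [hcard]; exact hN) (evalW Q.val xw) ?_ (h.normalClosure_top xw Lk hLk hn) ?_
  · intro M hM hMH
    rw [eq_bot_iff]
    intro m hm
    exact hinj (by rw [h.core M hM hMH m hm, map_one])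
  · rw [← evalW_flatten_replicate]
    apply h.eq_one_of_check hinj _ _ hxchk
    intro y hy
    simp only [List.mem_flatten, List.mem_replicate] at hy
    obtain ⟨l, ⟨_, rfl⟩, hy⟩ := hy
    exact hxw y hy
  · exact (Finite.one_lt_card_iff_nontrivial).mp (by rw [hcard]; exact hN1)

end Prob

end Cfsg.Agent.Lib.Helper28
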