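import Cfsg.Agent.Lib.Helper28.J1pL1Data

set_option autoImplicit false
set_option maxRecDepth 100000

namespace Cfsg.Agent.Lib.Helper28.J1pL1

open Cfsg.Agent.Lib.Helper28

theorem chk_22 : allRange D.checkLabel 33000 1500 = true := by decide +kernel
theorem chk_23 : allRange D.checkLabel 34500 1500 = true := by decide +kernel
theorem chk_24 : allRange D.checkLabel 36000 1500 = true := by decide +kernel
theorem chk_25 : allRange D.checkLabel 37500 1500 = true := by decide +kernel
theorem chk_26 : allRange D.checkLabel 39000 1500 = true := by decide +kernel
theorem chk_27 : allRange D.checkLabel 40500 1500 = true := by decide +kernel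
theorem chk_28 : allRange D.checkLabel 42000 1500 = true := by decide +kernel
theorem chk_29 : allRange D.checkLabel 43500 1500 = true := by decide +kernel
theorem chk_30 : allRange D.checkLabel 45000 1500 = true := by decide +kernel
theorem chk_31 : allRange D.checkLabel 46500 1500 = true := by decide +kernel
theorem chk_32 : allRange D.checkLabel 48000 1500 = true := by decide +kernel

end Cfsg.Agent.Lib.Helper28.J1pL1
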