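import Cfsg.Agent.Lib.Helper28.L37p57ChkU
import Cfsg.Agent.Lib.Helper28.L37p57ChkL

set_option autoImplicit false

namespace Cfsg.Agent.Lib.Helper28.L37p57

open Cfsg.Agent.Lib.Helper28
abbrev S : Set (FreeGroup Cfsg.Agent.Lib.Helper28.L37pDef.Gen) := ({(Cfsg.Agent.Lib.Helper28.L37pDef.e)⁻¹ * (Cfsg.Agent.Lib.Helper28.L37pDef.b)⁻¹, (Cfsg.Agent.Lib.Helper28.L37pDef.f)⁻¹ * (Cfsg.Agent.Lib.Helper28.L37pDef.b)⁻¹, Cfsg.Agent.Lib.Helper28.L37pDef.d * (Cfsg.Agent.Lib.Helper28.L37pDef.e)⁻¹ * (Cfsg.Agent.Lib.Helper28.L37pDef.c)⁻¹ * (Cfsg.Agent.Lib.Helper28.L37pDef.d)⁻¹} : Set (FreeGroup Cfsg.Agent.Lib.Helper28.L37pDef.Gen))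
theorem ok : Q.OK S where
  pd := Cfsg.Agent.Lib.Helper28.L37pPD.pd_ok
  letters := Cfsg.Agent.Lib.Helper28.L37pPD.pd_letters
  DK := rfl
  DKall := rfl
  LK := rfl
  Linv := rfl
  Ln := rfl
  sigK := by decide
  subK := by decide
  Dpairs := rfl
  pairs := pairs_ok
  relsK := relsK_ok
  wordsK := Cfsg.Agent.Lib.Helper28.L37pPD.pd_wordsK
  sub := by
    intro x hx
    have hx' : x ∈ subL := by simpa [Q, D] using hx
    simp only [subL, List.mem_cons, List.mem_nil_iff, or_false] at hx'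
    rcases hx' with rfl | rfl | rfl | rfl | rfl | rfl
    · rw [show (11 : ℕ) = Q.P.K + 1 + 2 * 0 from rfl, Prob.val_sig1 (Q := Q) 0 (by decide)]
      exact Subgroup.mem_map_of_mem _ (Subgroup.subset_closure (Set.mem_insert _ _))
    · rw [show (12 : ℕ) = Q.P.K + 2 + 2 * 0 from rfl, Prob.val_sig2 (Q := Q) 0 (by decide)]
      exact Subgroup.inv_mem _ (Subgroup.mem_map_of_mem _ (Subgroup.subset_closure (Set.mem_insert _ _)))
    · rw [show (13 : ℕ) = Q.P.K + 1 + 2 * 1 from rfl, Prob.val_sig1 (Q := Q) 1 (by decide)]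
      exact Subgroup.mem_map_of_mem _ (Subgroup.subset_closure (Set.mem_insert_of_mem _ (Set.mem_insert _ _)))
    · rw [show (14 : ℕ) = Q.P.K + 2 + 2 * 1 from rfl, Prob.val_sig2 (Q := Q) 1 (by decide)]
      exact Subgroup.inv_mem _ (Subgroup.mem_map_of_mem _ (Subgroup.subset_closure (Set.mem_insert_of_mem _ (Set.mem_insert _ _))))
    · rw [show (15 : ℕ) = Q.P.K + 1 + 2 * 2 from rfl, Prob.val_sig1 (Q := Q) 2 (by decide)]
      exact Subgroup.mem_map_of_mem _ (Subgroup.subset_closure (Set.mem_insert_of_mem _ (Set.mem_insert_of_mem _ (Set.mem_singleton _))))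
    · rw [show (16 : ℕ) = Q.P.K + 2 + 2 * 2 from rfl, Prob.val_sig2 (Q := Q) 2 (by decide)]
      exact Subgroup.inv_mem _ (Subgroup.mem_map_of_mem _ (Subgroup.subset_closure (Set.mem_insert_of_mem _ (Set.mem_insert_of_mem _ (Set.mem_singleton _)))))
  check := check_all
  hm := by decide
  h0 := h0_ok
  fin := allBelow_iff.mp fin_all
  count := live_count
  valid :=
    { invK := by
        intro x hx
        have hx' : x < 10 := hx
        interval_cases x <;> exact ⟨by decide, rfl⟩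
      point := allBelow_iff.mp point_ok
      tree := allBelow_iff.mp tree_ok }
  lrel := lrel_all
  S2 := by
    intro s hs
    simp only [S, Set.mem_insert_iff, Set.mem_singleton_iff] at hs
    rcases hs with rfl | rfl | rfl
    · exact ⟨(.mul (.inv (.g 6)) (.inv (.g 0))), by simp [Q, subE], rfl⟩
    · exact ⟨(.mul (.inv (.g 8)) (.inv (.g 0))), by simp [Q, subE], rfl⟩
    · exact ⟨(.mul (.mul (.mul (.g 4) (.inv (.g 6))) (.inv (.g 2))) (.inv (.g 4))), by simp [Q, subE], rfl⟩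
  lsub := lsub_ok

theorem index_eq : ((Subgroup.closure S).map (PresentedGroup.mk (Cfsg.Spor.coxRelators Cfsg.Agent.Lib.Helper28.L37pDef.edges ∪ {r | r ∈ Cfsg.Agent.Lib.Helper28.L37pDef.extra}))).index = 57 :=
  ok.index.1

end Cfsg.Agent.Lib.Helper28.L37p57
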