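import Cfsg.Prelude.Def_SporCoxeter

/-!
# An auxiliary presentation (helper28)
-/

set_option autoImplicit false

namespace Cfsg.Agent.Lib.Helper28.L37pDef

/-- the generators -/
inductive Gen
  | b
  | c
  | d
  | e
  | f
  deriving DecidableEq

/-- a generator -/
abbrev b : FreeGroup Gen := FreeGroup.of Gen.b
/-- a generator -/
abbrev c : FreeGroup Gen := FreeGroup.of Gen.c
/-- a generator -/
abbrev d : FreeGroup Gen := FreeGroup.of Gen.d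
/-- a generator -/
abbrev e : FreeGroup Gen := FreeGroup.of Gen.e
/-- a generator -/
abbrev f : FreeGroup Gen := FreeGroup.of Gen.f
/-- no Coxeter graph -/
def edges : List (Gen × ℕ × Gen) := []
/-- the relators -/
def extra : List (FreeGroup Gen) := [
  b * b * b,
  c * c,
  d * d,
  e * e,
  f * f,
  (b)⁻¹ * c * (b)⁻¹ * c * (b)⁻¹ * c,
  (b)⁻¹ * d * (b)⁻¹ * d,
  (b)⁻¹ * e * (b)⁻¹ * e,
  (b)⁻¹ * f * (b)⁻¹ * f,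
  (c)⁻¹ * d * (c)⁻¹ * d * (c)⁻¹ * d * (c)⁻¹ * d * (c)⁻¹ * d * (c)⁻¹ * d * (c)⁻¹ * d * (c)⁻¹ * d,
  (c)⁻¹ * e * (c)⁻¹ * e,
  (c)⁻¹ * f * (c)⁻¹ * f,
  (d)⁻¹ * e * (d)⁻¹ * e * (d)⁻¹ * e,
  (d)⁻¹ * f * (d)⁻¹ * f,
  (e)⁻¹ * f * (e)⁻¹ * f * (e)⁻¹ * f,
  f * (d)⁻¹ * c * (d)⁻¹ * c * (d)⁻¹ * c * (d)⁻¹ * c,
  (f)⁻¹ * d * (c)⁻¹ * d * (c)⁻¹ * d * (c)⁻¹ * d * (c)⁻¹]

end Cfsg.Agent.Lib.Helper28.L37pDef
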