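import Cfsg.Agent.Lib.Helper28.TCChain
import Cfsg.Agent.Lib.Helper28.L37pPD

set_option autoImplicit false
set_option maxRecDepth 100000

namespace Cfsg.Agent.Lib.Helper28.L37pL3

open Cfsg.Agent.Lib.Helper28

noncomputable def tabC0 : Tr := .leaf 0x462608
noncomputable def auxC0 : Tr := .leaf 0x2ad4001
noncomputable def tabC1 : Tr := .leaf 0x651808
noncomputable def auxC1 : Tr := .leaf 0x2c50001
noncomputable def tabC2 : Tr := .leaf 0x6e4250
noncomputable def auxC2 : Tr := .leaf 0x2ecc180
noncomputable def tabC3 : Tr := .leaf 0x764252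
noncomputable def auxC3 : Tr := .leaf 0x44c8112
noncomputable def tabC4 : Tr := .leaf 0
noncomputable def auxC4 : Tr := .leaf 0
noncomputable def dC : Tr := .leaf 0x209000400
noncomputable def tabCols : List Tr := [tabC0, tabC1, tabC2, tabC3, tabC4]
noncomputable def auxCols : List Tr := [auxC0, auxC1, auxC2, auxC3, auxC4]
def pairsC : List ((List ℕ × ℕ × List ℕ) × ℕ) := [
  (([2], 3, []), 5120),
  (([2], 2, []), 1024),
  (([0], 1, []), 3072),
  (([1], 0, []), 3074),
  (([1], 1, [0]), 1),
  (([1], 2, [3, 0, 3, 0]), 2048),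
  (([], 4, []), 8192)]
def subL : List ℕ := [0, 1]
noncomputable def D : UB where
  tab := field tabCols 6 63 6 63
  aux := field auxCols 6 63 7 127
  dinfo := field [dC] 6 63 9 511 0
  rb := 3
  RM := 7
  pb := 4
  PM := 15
  m := 4
  K := 4
  Kall := 5
  pairs := pairsC.map Prod.fst
  isSub := fun x => subL.contains x
  fuel := 64
def ren : ℕ → ℕ
  | 0 => 0
  | 1 => 1
  | 2 => 2
  | 3 => 3
  | _ => 0
def invL : ℕ → ℕ
  | 0 => 1
  | 1 => 0
  | 2 => 3
  | 3 => 2
  | x => x
def relsL : List (List ℕ) := [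
  [0, 0, 0],
  [2, 2],
  [1, 2, 1, 2, 1, 2]]
noncomputable def Lk : Link where
  D := D
  ren := ren
  inv := invL
  rels := relsL
  pairsC := pairsC
  subL := subL
  n := 4
theorem chk_0 : allRange D.checkLabel 0 4 = true := by decide +kernel
theorem check_all : ∀ c < D.m, D.checkLabel c = true := by
  intro c hc
  have hc' : c < 4 := hc
  by_cases h0 : c < 4
  · exact allRange_iff.mp chk_0 c (by omega) (by omega)
  omega
theorem pairs_ok : pairsC.all (pairOK (relsAll relsL invL 5) invL 4 5) = true := by decide +kernel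
theorem relsK_ok : ∀ r ∈ relsAll relsL invL 5, ∀ y ∈ r, y < 5 := by decide +kernel
theorem core : Lk.Core (Cfsg.Agent.Lib.Helper28.L37pPD.pd.words) Cfsg.Agent.Lib.Helper28.L37pPD.pd.inv Cfsg.Agent.Lib.Helper28.L37pPD.pd.K [0, 1] where
  Kall := rfl
  invK := by decide +kernel
  invE := rfl
  relsIn := by decide +kernel
  Dpairs := rfl
  pairs := pairs_ok
  relsK := relsK_ok
  isSub := by
    intro x hx
    have hx' : subL.contains x = true := hx
    show x ∈ subL
    simpa using hx'
  sub := by decide +kernel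
  check := check_all
theorem fin_all : allBelow D.finalLabel 4 = true := by decide +kernel
theorem live_count : D.liveCount = 4 := by decide +kernel
theorem h0_ok : D.tg D.K 0 = 0 := by decide +kernel
theorem ok : Lk.OK (Cfsg.Agent.Lib.Helper28.L37pPD.pd.words) Cfsg.Agent.Lib.Helper28.L37pPD.pd.inv Cfsg.Agent.Lib.Helper28.L37pPD.pd.K [0, 1, 2, 3] [0, 1] where
  toCore := core
  gens := by decide +kernel
  hm := by decide
  h0 := h0_ok
  fin := allBelow_iff.mp fin_all
  count := live_count

end Cfsg.Agent.Lib.Helper28.L37pL3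

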