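import Cfsg.Agent.Lib.Helper28.M11p11ChkU
import Cfsg.Agent.Lib.Helper28.M11p11ChkL

set_option autoImplicit false

namespace Cfsg.Agent.Lib.Helper28.M11p11

open Cfsg.Agent.Lib.Helper28
abbrev S : Set (FreeGroup Cfsg.Agent.Lib.Helper28.M11pDef.Gen) := ({Cfsg.Agent.Lib.Helper28.M11pDef.b * Cfsg.Agent.Lib.Helper28.M11pDef.a * Cfsg.Agent.Lib.Helper28.M11pDef.b * Cfsg.Agent.Lib.Helper28.M11pDef.a * (Cfsg.Agent.Lib.Helper28.M11pDef.b)⁻¹, Cfsg.Agent.Lib.Helper28.M11pDef.a * Cfsg.Agent.Lib.Helper28.M11pDef.b * Cfsg.Agent.Lib.Helper28.M11pDef.a} : Set (FreeGroup Cfsg.Agent.Lib.Helper28.M11pDef.Gen))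
theorem ok : Q.OK S where
  pd := Cfsg.Agent.Lib.Helper28.M11pPD.pd_ok
  letters := Cfsg.Agent.Lib.Helper28.M11pPD.pd_letters
  DK := rfl
  DKall := rfl
  LK := rfl
  Linv := rfl
  Ln := rfl
  sigK := by decide
  subK := by decide
  Dpairs := rfl
  pairs := pairs_ok
  relsK := relsK_ok
  wordsK := Cfsg.Agent.Lib.Helper28.M11pPD.pd_wordsK
  sub := by
    intro x hx
    have hx' : x ∈ subL := by simpa [Q, D] using hx
    simp only [subL, List.mem_cons, List.mem_nil_iff, or_false] at hx'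
    rcases hx' with rfl | rfl | rfl | rfl
    · rw [show (5 : ℕ) = Q.P.K + 1 + 2 * 0 from rfl, Prob.val_sig1 (Q := Q) 0 (by decide)]
      exact Subgroup.mem_map_of_mem _ (Subgroup.subset_closure (by simp [Q, sigE, WExp.value, Cfsg.Agent.Lib.Helper28.M11pPD.pd, Cfsg.Agent.Lib.Helper28.M11pPD.lfree]))
    · rw [show (6 : ℕ) = Q.P.K + 2 + 2 * 0 from rfl, Prob.val_sig2 (Q := Q) 0 (by decide)]
      exact Subgroup.inv_mem _ (Subgroup.mem_map_of_mem _ (Subgroup.subset_closure (by simp [Q, sigE, WExp.value, Cfsg.Agent.Lib.Helper28.M11pPD.pd, Cfsg.Agent.Lib.Helper28.M11pPD.lfree])))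
    · rw [show (7 : ℕ) = Q.P.K + 1 + 2 * 1 from rfl, Prob.val_sig1 (Q := Q) 1 (by decide)]
      exact Subgroup.mem_map_of_mem _ (Subgroup.subset_closure (by simp [Q, sigE, WExp.value, Cfsg.Agent.Lib.Helper28.M11pPD.pd, Cfsg.Agent.Lib.Helper28.M11pPD.lfree]))
    · rw [show (8 : ℕ) = Q.P.K + 2 + 2 * 1 from rfl, Prob.val_sig2 (Q := Q) 1 (by decide)]
      exact Subgroup.inv_mem _ (Subgroup.mem_map_of_mem _ (Subgroup.subset_closure (by simp [Q, sigE, WExp.value, Cfsg.Agent.Lib.Helper28.M11pPD.pd, Cfsg.Agent.Lib.Helper28.M11pPD.lfree])))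
  check := check_all
  hm := by decide
  h0 := h0_ok
  fin := allBelow_iff.mp fin_all
  count := live_count
  valid :=
    { invK := by
        intro x hx
        have hx' : x < 4 := hx
        interval_cases x <;> exact ⟨by decide, rfl⟩
      point := allBelow_iff.mp point_ok
      tree := allBelow_iff.mp tree_ok }
  lrel := lrel_all
  S2 := by
    intro s hs
    simp only [S, Set.mem_insert_iff, Set.mem_singleton_iff] at hs
    rcases hs with rfl | rfl
    · exact ⟨(.mul (.mul (.mul (.mul (.g 2) (.g 0)) (.g 2)) (.g 0)) (.inv (.g 2))), by simp [Q, subE], rfl⟩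
    · exact ⟨(.mul (.mul (.g 0) (.g 2)) (.g 0)), by simp [Q, subE], rfl⟩
  lsub := lsub_ok

theorem index_eq : ((Subgroup.closure S).map (PresentedGroup.mk (Cfsg.Spor.coxRelators Cfsg.Agent.Lib.Helper28.M11pDef.edges ∪ {r | r ∈ Cfsg.Agent.Lib.Helper28.M11pDef.extra}))).index = 11 :=
  ok.index.1

end Cfsg.Agent.Lib.Helper28.M11p11
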