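import Cfsg.Prelude.Def_SporCoxeter

/-!
# An auxiliary presentation (helper28)
-/

set_option autoImplicit false

namespace Cfsg.Agent.Lib.Helper28.M11pDef

/-- the generators -/
inductive Gen
  | a
  | b
  deriving DecidableEq

/-- a generator -/
abbrev a : FreeGroup Gen := FreeGroup.of Gen.a
/-- a generator -/
abbrev b : FreeGroup Gen := FreeGroup.of Gen.b
/-- no Coxeter graph -/
def edges : List (Gen × ℕ × Gen) := []
/-- the relators -/
def extra : List (FreeGroup Gen) := [
  a * a,
  b * b * b * b,
  a * b * a * b * a * b * a * b * a * b * a * b * a * b * a * b * a * b * a * b * a * b,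
  a * b * b * a * b * b * a * b * b * a * b * b * a * b * b * a * b * b,
  a * b * a * b * a * (b)⁻¹ * a * b * a * b * b * a * (b)⁻¹ * a * b * a * (b)⁻¹ * a * (b)⁻¹]

end Cfsg.Agent.Lib.Helper28.M11pDef
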