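import Cfsg.Agent.Lib.Helper28.M11p11
import Cfsg.Agent.Lib.Helper28.TCOrbit

set_option autoImplicit false
set_option maxRecDepth 100000

namespace Cfsg.Agent.Lib.Helper28.M11p11

open Cfsg.Agent.Lib.Helper28
noncomputable def oC : Tr := .leaf 0x203002150800c442001130400c4430011404008440001180400850000210000004000000
noncomputable def O : Orb where
  oinfo := field [oC] 6 63 26 67108863 0
  roots := [0, 1]
theorem oinv_ok : allBelow (O.checkInv Q) 11 = true := by decide +kernel
theorem otree_ok : allBelow (O.checkTree Q) 11 = true := by decide +kernel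
theorem O_ok : O.OK Q where
  inv := allBelow_iff.mp oinv_ok
  tree := allBelow_iff.mp otree_ok
theorem hS1 : ∀ E ∈ Q.subE, E.value Q.P.lfree ∈ S := by
  intro E hE
  simp only [Q, subE, List.mem_cons, List.mem_nil_iff, or_false] at hE
  rcases hE with rfl | rfl <;> simp [S, WExp.value, Q, Cfsg.Agent.Lib.Helper28.M11pPD.pd, Cfsg.Agent.Lib.Helper28.M11pPD.lfree]
theorem count_0 : O.count Q 0 = 1 := by decide +kernel
theorem root_0 : nth O.roots Q.n 0 < Q.n ∧ O.oid (nth O.roots Q.n 0) = 0 := by decide +kernel
theorem count_1 : O.count Q 1 = 10 := by decide +kernel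
theorem root_1 : nth O.roots Q.n 1 < Q.n ∧ O.oid (nth O.roots Q.n 1) = 1 := by decide +kernel

end Cfsg.Agent.Lib.Helper28.M11p11
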