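import Cfsg.Agent.Lib.Helper28.M11p11Data
import Cfsg.Agent.Lib.Helper28.TCStab

set_option autoImplicit false
set_option maxRecDepth 100000

namespace Cfsg.Agent.Lib.Helper28.M11p11

open Cfsg.Agent.Lib.Helper28

noncomputable def lev0C : Tr := .leaf 0x240007170801864200716080144c00041208008480002150800c40200110000044000001
def lev0T : List (List ℕ) := [
  [0],
  [1],
  [2],
  [3]]
noncomputable def lev0 : Lev where
  b := 0
  T := lev0T
  info := field [lev0C] 6 63 26 67108863 0
  cnt := 11
theorem lev0_tree : allBelow (lev0.checkTree L) 11 = true := by decide +kernel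
theorem lev0_ok : lev0.OK L [] where
  hb := by decide
  letters := by decide +kernel
  fix := by decide +kernel
  tree := allBelow_iff.mp lev0_tree
  count := by decide +kernel
noncomputable def lev1C : Tr := .leaf 0x1800041a00014681005130401c5410031404008441001180401850000211000004000000
def lev1T : List (List ℕ) := [
  [2, 0, 2, 0, 3],
  [0, 2, 0]]
noncomputable def lev1 : Lev where
  b := 1
  T := lev1T
  info := field [lev1C] 6 63 26 67108863 0
  cnt := 10
theorem lev1_tree : allBelow (lev1.checkTree L) 11 = true := by decide +kernel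
theorem lev1_ok : lev1.OK L [0] where
  hb := by decide
  letters := by decide +kernel
  fix := by decide +kernel
  tree := allBelow_iff.mp lev1_tree
  count := by decide +kernel
noncomputable def lev2C : Tr := .leaf 0x2400031400008481001130000c5c0004130400c480001180000848000010000000000000
def lev2T : List (List ℕ) := [
  [0, 2, 0, 2, 0, 2, 0, 0, 2, 0, 0, 2, 0, 3],
  [0, 2, 0, 2, 0, 2, 0, 3, 0, 2, 0, 2, 1, 3, 1, 3, 1, 3, 1]]
noncomputable def lev2 : Lev where
  b := 2
  T := lev2T
  info := field [lev2C] 6 63 26 67108863 0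
  cnt := 9
theorem lev2_tree : allBelow (lev2.checkTree L) 11 = true := by decide +kernel
theorem lev2_ok : lev2.OK L [1, 0] where
  hb := by decide
  letters := by decide +kernel
  fix := by decide +kernel
  tree := allBelow_iff.mp lev2_tree
  count := by decide +kernel
noncomputable def lev3C : Tr := .leaf 0x1c0003140000864000316000084c000118000104c1001130000040000000000000000000
def lev3T : List (List ℕ) := [
  [0, 2, 0, 2, 0, 2, 0, 0, 2, 0, 0, 2, 0, 3, 0, 2, 0, 2, 0, 2, 0, 3, 0, 2, 0, 2, 0, 2, 0, 0, 2, 0, 3],
  [0, 2, 0, 2, 0, 2, 0, 3, 0, 2, 0, 0, 2, 0, 2, 1, 3, 1, 3, 1, 3, 1, 2, 1, 3, 1, 1, 3, 1, 3, 1, 3, 1, 2, 1, 3, 1, 3, 1, 3, 1]]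
noncomputable def lev3 : Lev where
  b := 3
  T := lev3T
  info := field [lev3C] 6 63 26 67108863 0
  cnt := 8
theorem lev3_tree : allBelow (lev3.checkTree L) 11 = true := by decide +kernel
theorem lev3_ok : lev3.OK L [2, 1, 0] where
  hb := by decide
  letters := by decide +kernel
  fix := by decide +kernel
  tree := allBelow_iff.mp lev3_tree
  count := by decide +kernel
noncomputable def levels : List Lev := [lev0, lev1, lev2, lev3]
theorem chain_ok : chainOK L [] levels := ⟨lev0_ok, lev1_ok, lev2_ok, lev3_ok, trivial⟩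
theorem levels_prod : (levels.map Lev.cnt).prod = 7920 := by decide +kernel

end Cfsg.Agent.Lib.Helper28.M11p11
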