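import Cfsg.Agent.Lib.Helper28.M11pL1
import Cfsg.Agent.Lib.Helper28.M11pL2

set_option autoImplicit false
set_option maxRecDepth 100000

namespace Cfsg.Agent.Lib.Helper28.M11pChain

open Cfsg.Agent.Lib.Helper28

theorem bound_2 {G : Type*} [Group G] (v : ℕ → G) : Finite (Sg v []) ∧ Nat.card (Sg v []) ≤ 1 := by
  rw [Sg_nil]
  exact ⟨inferInstance, by simp⟩

theorem bound_1 {G : Type*} [Group G] (v : ℕ → G) (hW : ∀ w ∈ Cfsg.Agent.Lib.Helper28.M11pPD.pd.words, evalW v w = 1)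
    (hoinv : ∀ y < Cfsg.Agent.Lib.Helper28.M11pPD.pd.K, v (Cfsg.Agent.Lib.Helper28.M11pPD.pd.inv y) = (v y)⁻¹) :
    Finite (Sg v [2, 3]) ∧ Nat.card (Sg v [2, 3]) ≤ 4 * 1 := by
  obtain ⟨f, c⟩ := bound_2 v
  obtain ⟨f', c'⟩ := M11pL2.ok.card_le v hW hoinv f
  exact ⟨f', le_trans c' (Nat.mul_le_mul_left _ c)⟩

theorem bound_0 {G : Type*} [Group G] (v : ℕ → G) (hW : ∀ w ∈ Cfsg.Agent.Lib.Helper28.M11pPD.pd.words, evalW v w = 1)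
    (hoinv : ∀ y < Cfsg.Agent.Lib.Helper28.M11pPD.pd.K, v (Cfsg.Agent.Lib.Helper28.M11pPD.pd.inv y) = (v y)⁻¹) :
    Finite (Sg v [0, 1, 2, 3]) ∧ Nat.card (Sg v [0, 1, 2, 3]) ≤ 1980 * (4 * 1) := by
  obtain ⟨f, c⟩ := bound_1 v hW hoinv
  obtain ⟨f', c'⟩ := M11pL1.ok.card_le v hW hoinv f
  exact ⟨f', le_trans c' (Nat.mul_le_mul_left _ c)⟩

end Cfsg.Agent.Lib.Helper28.M11pChain
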