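import Cfsg.Agent.Lib.Helper28.M11p11Orb
import Cfsg.Agent.Lib.Helper28.M11p11Stab
import Cfsg.Agent.Lib.Helper28.M11p11Coll
import Cfsg.Agent.Lib.Helper28.M11pChain
import Cfsg.Agent.Lib.Helper28.TCSimple2

set_option autoImplicit false
set_option maxRecDepth 100000

namespace Cfsg.Agent.Lib.Helper28.M11p11

open Cfsg.Agent.Lib.Helper28

theorem oid_lt : allBelow (fun c => Nat.blt (O.oid c) 2) 11 = true := by decide +kernel
theorem oid_zero : O.oid 0 = 0 := by decide +kernel
theorem cnt_eq : ∀ k < 2, O.count Q k = [1, 10].getD k 0 := by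
  intro k hk
  interval_cases k
  · exact count_0
  · exact count_1
theorem arith0 : ∀ I ∈ (Finset.range 2).powerset, 0 ∈ I → (∑ k ∈ I, [1, 10].getD k 0) ∣ 11 →
    I = {0} ∨ I = Finset.range 2 := by decide +kernel
theorem sum_cnt (I : Finset ℕ) (hI : I ∈ (Finset.range 2).powerset) :
    ∑ k ∈ I, O.count Q k = ∑ k ∈ I, [1, 10].getD k 0 :=
  Finset.sum_congr rfl (fun k hk => cnt_eq k (Finset.mem_range.mp (Finset.mem_powerset.mp hI hk)))
theorem arith : ∀ I ∈ (Finset.range 2).powerset, 0 ∈ I → (∑ k ∈ I, O.count Q k) ∣ Q.n →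
    I = {0} ∨ I = Finset.range 2 := by
  intro I hI h0 hd
  rw [sum_cnt I hI] at hd
  exact arith0 I hI h0 hd
theorem sum_all : ∑ k ∈ Finset.range 2, O.count Q k = Q.n := by
  rw [sum_cnt _ (Finset.mem_powerset.mpr (Finset.Subset.refl _))]
  decide +kernel
def xw : List ℕ := [0, 2]
theorem x_chk_0 : allRange (fun c => L.checkRel (List.replicate (11 ^ 1) xw).flatten c) 0 11 = true := by
  decide +kernel
theorem x_chk : ∀ c < Q.L.n, Q.L.checkRel (List.replicate (11 ^ 1) xw).flatten c = true := by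
  intro c hc
  have hc' : c < 11 := hc
  by_cases h0 : c < 11
  · exact allRange_iff.mp x_chk_0 c (by omega) (by omega)
  omega
theorem range_eq : List.range Q.P.K = [0, 1, 2, 3] := by decide +kernel
theorem ub : Finite (Sg Q.val (List.range Q.P.K)) ∧ Nat.card (Sg Q.val (List.range Q.P.K)) ≤ 7920 := by
  rw [range_eq]
  obtain ⟨f, c⟩ := M11pChain.bound_0 Q.val ok.val_words ok.val_inv
  exact ⟨f, le_trans c (by norm_num)⟩
theorem main : IsSimpleGroup Q.Grp ∧ Nat.card Q.Grp = 7920 ∧ Function.Injective (Prob.phi ok) :=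
  Prob.OK.simple O ok O_ok hS1 2 (fun c hc => lt_of_blt (allBelow_iff.mp oid_lt c hc)) count_0 oid_zero sum_all arith
    7920 ub levels chain_ok levels_prod 11 1 1 (by norm_num) (by decide +kernel) (by norm_num) (by norm_num)
    xw (by decide +kernel) x_chk M11p11Coll.Lk M11p11Coll.ok rfl

end Cfsg.Agent.Lib.Helper28.M11p11
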