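import Cfsg.Agent.Lib.Helper28.TCProb
import Cfsg.Prelude.Def_Spor_ON

set_option autoImplicit false

namespace Cfsg.Agent.Lib.Helper28.ONPD

open Cfsg.Agent.Lib.Helper28 Cfsg.Spor
def lfree : ℕ → FreeGroup Cfsg.Spor.ON.Gen
  | 0 => Cfsg.Spor.ON.g
  | 1 => (Cfsg.Spor.ON.g)⁻¹
  | 2 => Cfsg.Spor.ON.a
  | 3 => Cfsg.Spor.ON.b
  | 4 => Cfsg.Spor.ON.c
  | 5 => Cfsg.Spor.ON.d
  | 6 => Cfsg.Spor.ON.e
  | _ => Cfsg.Spor.ON.f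
def inv : ℕ → ℕ
  | 0 => 1
  | 1 => 0
  | 2 => 2
  | 3 => 3
  | 4 => 4
  | 5 => 5
  | 6 => 6
  | 7 => 7
  | x => x
def enc : Cfsg.Spor.ON.Gen → ℕ
  | .g => 0
  | .a => 2
  | .b => 3
  | .c => 4
  | .d => 5
  | .e => 6
  | .f => 7
def extraE : List WExp := [
  (.mul (.mul (.g 2) (.g 7)) (.inv (.pow (.g 0) 2))),
  (.mul (.mul (.g 2) (.g 7)) (.inv (.pow (.mul (.g 4) (.g 5)) 4))),
  (.mul (.g 4) (.mul (.mul (.inv (.mul (.mul (.mul (.g 5) (.g 0)) (.g 5)) (.g 0))) (.g 4)) (.mul (.mul (.mul (.g 5) (.g 0)) (.g 5)) (.g 0)))),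
  (.mul (.g 5) (.mul (.mul (.inv (.mul (.mul (.mul (.g 4) (.g 0)) (.g 4)) (.g 0))) (.g 5)) (.mul (.mul (.mul (.g 4) (.g 0)) (.g 4)) (.g 0)))),
  (.pow (.mul (.mul (.mul (.g 3) (.g 4)) (.g 5)) (.g 0)) 5),
  (.mul (.mul (.mul (.mul (.g 0) (.g 3)) (.mul (.mul (.inv (.g 4)) (.g 0)) (.g 4))) (.mul (.mul (.inv (.g 3)) (.g 0)) (.g 3))) (.mul (.mul (.inv (.g 4)) (.g 0)) (.g 4))),
  (.mul (.mul (.mul (.mul (.g 0) (.g 6)) (.mul (.mul (.inv (.g 5)) (.g 0)) (.g 5))) (.mul (.mul (.inv (.g 6)) (.g 0)) (.g 6))) (.mul (.mul (.inv (.g 5)) (.g 0)) (.g 5)))]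
def pd : PD Cfsg.Spor.ON.Gen where
  edges := Cfsg.Spor.ON.edges
  extra := Cfsg.Spor.ON.extra
  K := 8
  lfree := lfree
  inv := inv
  enc := enc
  nodesL := [.a, .b, .c, .d, .e, .f]
  extraE := extraE
theorem pd_ok : pd.OK where
  extra := rfl
  extraK := by decide
  enc := by intro a; cases a <;> exact ⟨rfl, by decide⟩
  nodes1 := by decide
  nodes2 := by decide
  inv := by
    intro x hx
    have hx' : x < 8 := hx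
    interval_cases x
    · exact ⟨by decide, Or.inl (by simp [pd, inv, lfree])⟩
    · exact ⟨by decide, Or.inl (by simp [pd, inv, lfree])⟩
    · exact ⟨by decide, Or.inr ⟨rfl, .a, by decide, rfl⟩⟩
    · exact ⟨by decide, Or.inr ⟨rfl, .b, by decide, rfl⟩⟩
    · exact ⟨by decide, Or.inr ⟨rfl, .c, by decide, rfl⟩⟩
    · exact ⟨by decide, Or.inr ⟨rfl, .d, by decide, rfl⟩⟩
    · exact ⟨by decide, Or.inr ⟨rfl, .e, by decide, rfl⟩⟩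
    · exact ⟨by decide, Or.inr ⟨rfl, .f, by decide, rfl⟩⟩

theorem pd_letters : ∀ x < pd.K, (∃ a, x = pd.enc a) ∨ (∃ a, x = pd.inv (pd.enc a) ∧ pd.lfree x = (FreeGroup.of a)⁻¹) := by
  intro x hx
  have hx' : x < 8 := hx
  interval_cases x
  · exact Or.inl ⟨.g, rfl⟩
  · exact Or.inr ⟨.g, rfl, rfl⟩
  · exact Or.inl ⟨.a, rfl⟩
  · exact Or.inl ⟨.b, rfl⟩
  · exact Or.inl ⟨.c, rfl⟩
  · exact Or.inl ⟨.d, rfl⟩
  · exact Or.inl ⟨.e, rfl⟩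
  · exact Or.inl ⟨.f, rfl⟩

theorem pd_wordsK : ∀ w ∈ pd.words, ∀ y ∈ w, y < pd.K := by decide +kernel

end Cfsg.Agent.Lib.Helper28.ONPD
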