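import Cfsg.Agent.Lib.Helper28.Suz22880ChkU
import Cfsg.Agent.Lib.Helper28.Suz22880ChkL

set_option autoImplicit false

namespace Cfsg.Agent.Lib.Helper28.Suz22880

open Cfsg.Agent.Lib.Helper28
abbrev S : Set (FreeGroup Cfsg.Spor.Suz.Gen) := ({Cfsg.Spor.Suz.a, Cfsg.Spor.Suz.b, Cfsg.Spor.Suz.c, Cfsg.Spor.Suz.d, Cfsg.Spor.Suz.f, Cfsg.Spor.Suz.g} : Set (FreeGroup Cfsg.Spor.Suz.Gen))
theorem ok : Q.OK S where
  pd := Cfsg.Agent.Lib.Helper28.SuzPD.pd_ok
  letters := Cfsg.Agent.Lib.Helper28.SuzPD.pd_letters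
  DK := rfl
  DKall := rfl
  LK := rfl
  Linv := rfl
  Ln := rfl
  sigK := by decide
  subK := by decide
  Dpairs := rfl
  pairs := pairs_ok
  relsK := relsK_ok
  wordsK := Cfsg.Agent.Lib.Helper28.SuzPD.pd_wordsK
  sub := by
    intro x hx
    have hx' : x ∈ subL := by simpa [Q, D] using hx
    simp only [subL, List.mem_cons, List.mem_nil_iff, or_false] at hx'
    rcases hx' with rfl | rfl | rfl | rfl | rfl | rfl
    · rw [Prob.val_lt (Q := Q) (show 0 < 7 by decide)]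
      exact Subgroup.mem_map_of_mem _ (Subgroup.subset_closure (by simp [Q, Cfsg.Agent.Lib.Helper28.SuzPD.pd, Cfsg.Agent.Lib.Helper28.SuzPD.lfree]))
    · rw [Prob.val_lt (Q := Q) (show 1 < 7 by decide)]
      exact Subgroup.mem_map_of_mem _ (Subgroup.subset_closure (by simp [Q, Cfsg.Agent.Lib.Helper28.SuzPD.pd, Cfsg.Agent.Lib.Helper28.SuzPD.lfree]))
    · rw [Prob.val_lt (Q := Q) (show 2 < 7 by decide)]
      exact Subgroup.mem_map_of_mem _ (Subgroup.subset_closure (by simp [Q, Cfsg.Agent.Lib.Helper28.SuzPD.pd, Cfsg.Agent.Lib.Helper28.SuzPD.lfree]))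
    · rw [Prob.val_lt (Q := Q) (show 3 < 7 by decide)]
      exact Subgroup.mem_map_of_mem _ (Subgroup.subset_closure (by simp [Q, Cfsg.Agent.Lib.Helper28.SuzPD.pd, Cfsg.Agent.Lib.Helper28.SuzPD.lfree]))
    · rw [Prob.val_lt (Q := Q) (show 5 < 7 by decide)]
      exact Subgroup.mem_map_of_mem _ (Subgroup.subset_closure (by simp [Q, Cfsg.Agent.Lib.Helper28.SuzPD.pd, Cfsg.Agent.Lib.Helper28.SuzPD.lfree]))
    · rw [Prob.val_lt (Q := Q) (show 6 < 7 by decide)]
      exact Subgroup.mem_map_of_mem _ (Subgroup.subset_closure (by simp [Q, Cfsg.Agent.Lib.Helper28.SuzPD.pd, Cfsg.Agent.Lib.Helper28.SuzPD.lfree]))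
  check := check_all
  hm := by decide
  h0 := h0_ok
  fin := allBelow_iff.mp fin_all
  count := live_count
  valid :=
    { invK := by
        intro x hx
        have hx' : x < 7 := hx
        interval_cases x <;> exact ⟨by decide, rfl⟩
      point := allBelow_iff.mp point_ok
      tree := allBelow_iff.mp tree_ok }
  lrel := lrel_all
  S2 := by
    intro s hs
    simp only [S, Set.mem_insert_iff, Set.mem_singleton_iff] at hs
    rcases hs with rfl | rfl | rfl | rfl | rfl | rfl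
    · exact ⟨(.g 0), by simp [Q, subE], rfl⟩
    · exact ⟨(.g 1), by simp [Q, subE], rfl⟩
    · exact ⟨(.g 2), by simp [Q, subE], rfl⟩
    · exact ⟨(.g 3), by simp [Q, subE], rfl⟩
    · exact ⟨(.g 5), by simp [Q, subE], rfl⟩
    · exact ⟨(.g 6), by simp [Q, subE], rfl⟩
  lsub := lsub_ok

theorem index_eq : ((Subgroup.closure S).map (PresentedGroup.mk (Cfsg.Spor.coxRelators Cfsg.Spor.Suz.edges ∪ {r | r ∈ Cfsg.Spor.Suz.extra}))).index = 22880 :=
  ok.index.1

end Cfsg.Agent.Lib.Helper28.Suz22880
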