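import Cfsg.Agent.Lib.Helper28.Suz22880Data

set_option autoImplicit false
set_option maxRecDepth 100000

namespace Cfsg.Agent.Lib.Helper28.Suz22880

open Cfsg.Agent.Lib.Helper28
theorem lrel_0 : allRange (fun c => allList (fun w => L.checkRel w c) Cfsg.Agent.Lib.Helper28.SuzPD.pd.words) 0 2352 = true := by decide +kernel
theorem lrel_1 : allRange (fun c => allList (fun w => L.checkRel w c) Cfsg.Agent.Lib.Helper28.SuzPD.pd.words) 2352 2352 = true := by decide +kernel
theorem lrel_2 : allRange (fun c => allList (fun w => L.checkRel w c) Cfsg.Agent.Lib.Helper28.SuzPD.pd.words) 4704 2352 = true := by decide +kernel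

end Cfsg.Agent.Lib.Helper28.Suz22880
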