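import Cfsg.Agent.Lib.Helper28.Suz22880Data

set_option autoImplicit false
set_option maxRecDepth 100000

namespace Cfsg.Agent.Lib.Helper28.Suz22880

open Cfsg.Agent.Lib.Helper28
theorem chk_15 : allRange D.checkLabel 22500 1500 = true := by decide +kernel
theorem chk_16 : allRange D.checkLabel 24000 1500 = true := by decide +kernel
theorem chk_17 : allRange D.checkLabel 25500 1500 = true := by decide +kernel
theorem chk_18 : allRange D.checkLabel 27000 736 = true := by decide +kernel

end Cfsg.Agent.Lib.Helper28.Suz22880
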