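import Cfsg.Agent.Lib.Helper28.Suz22880ChkU0
import Cfsg.Agent.Lib.Helper28.Suz22880ChkU1
import Cfsg.Agent.Lib.Helper28.Suz22880ChkU2
import Cfsg.Agent.Lib.Helper28.Suz22880ChkU3

set_option autoImplicit false
set_option maxRecDepth 100000

namespace Cfsg.Agent.Lib.Helper28.Suz22880

open Cfsg.Agent.Lib.Helper28
theorem fin_all : allBelow D.finalLabel 27736 = true := by decide +kernel
theorem live_count : D.liveCount = 22880 := by decide +kernel
theorem pairs_ok : Q.pairsC.all (pairOK (relsAll Q.relW Q.invA Q.Kall) Q.invA Q.P.K Q.Kall) = true := by decide +kernel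
theorem relsK_ok : ∀ r ∈ relsAll Q.relW Q.invA Q.Kall, ∀ y ∈ r, y < Q.Kall := by decide +kernel
theorem h0_ok : D.tg D.K 0 = 0 := by decide +kernel
theorem point_ok : allBelow L.checkPoint 22880 = true := by decide +kernel
theorem tree_ok : allBelow L.checkTree 22880 = true := by decide +kernel
theorem lsub_ok : ∀ E ∈ Q.subE, ptrace Q.L.pt (E.word Q.P.inv) 0 = 1 := by decide +kernel
theorem check_all : ∀ c < D.m, D.checkLabel c = true := by
  intro c hc
  have hc' : c < 27736 := hc
  by_cases h0 : c < 1500
  · exact allRange_iff.mp chk_0 c (by omega) (by omega)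
  by_cases h1 : c < 3000
  · exact allRange_iff.mp chk_1 c (by omega) (by omega)
  by_cases h2 : c < 4500
  · exact allRange_iff.mp chk_2 c (by omega) (by omega)
  by_cases h3 : c < 6000
  · exact allRange_iff.mp chk_3 c (by omega) (by omega)
  by_cases h4 : c < 7500
  · exact allRange_iff.mp chk_4 c (by omega) (by omega)
  by_cases h5 : c < 9000
  · exact allRange_iff.mp chk_5 c (by omega) (by omega)
  by_cases h6 : c < 10500
  · exact allRange_iff.mp chk_6 c (by omega) (by omega)
  by_cases h7 : c < 12000
  · exact allRange_iff.mp chk_7 c (by omega) (by omega)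
  by_cases h8 : c < 13500
  · exact allRange_iff.mp chk_8 c (by omega) (by omega)
  by_cases h9 : c < 15000
  · exact allRange_iff.mp chk_9 c (by omega) (by omega)
  by_cases h10 : c < 16500
  · exact allRange_iff.mp chk_10 c (by omega) (by omega)
  by_cases h11 : c < 18000
  · exact allRange_iff.mp chk_11 c (by omega) (by omega)
  by_cases h12 : c < 19500
  · exact allRange_iff.mp chk_12 c (by omega) (by omega)
  by_cases h13 : c < 21000
  · exact allRange_iff.mp chk_13 c (by omega) (by omega)
  by_cases h14 : c < 22500
  · exact allRange_iff.mp chk_14 c (by omega) (by omega)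
  by_cases h15 : c < 24000
  · exact allRange_iff.mp chk_15 c (by omega) (by omega)
  by_cases h16 : c < 25500
  · exact allRange_iff.mp chk_16 c (by omega) (by omega)
  by_cases h17 : c < 27000
  · exact allRange_iff.mp chk_17 c (by omega) (by omega)
  by_cases h18 : c < 27736
  · exact allRange_iff.mp chk_18 c (by omega) (by omega)
  omega

end Cfsg.Agent.Lib.Helper28.Suz22880
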